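import Cfsg.Agent.Lib.CharDegreesTheory.KleinDegrees
import Cfsg.Agent.Lib.CharDegreesTheory.PrimeDegrees
import Cfsg.Agent.Lib.Blocks.PrimePowerDegree
import Cfsg.Agent.Lib.CharTheory.Burnside
import Cfsg.Agent.Lib.SL2.Dickson.Sixty
import Cfsg.Agent.Lib.ZerosCodegree.BlockTools

/-!
# Simple groups of order `4 p^a q^b` and `3 p^a q^b`, `a ≤ 2`

For the cofactor `4` the degree equations of the principal 2-block force the degrees `3, 3, 5`.
For the cofactor `3` the Sylow 3-subgroup is self-centralising.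
-/

set_option autoImplicit false
set_option linter.style.haveILetI false
set_option linter.unusedSectionVars false

namespace CfsgLib.Fixity.SmallCofactor

open Cfsg CfsgLib CfsgLib.CharTheory

/-! ### Arithmetic -/

/-- A half `W` of a signed degree plus one. -/
def Good (p q a : ℕ) (W : ℤ) : Prop :=
  (∀ ℓ : ℕ, ℓ.Prime → (ℓ : ℤ) ∣ W → ℓ = p ∨ ℓ = q) ∧
    ∃ u v : ℕ, (2 * W - 1).natAbs = p ^ u * q ^ v ∧ (u ≠ 0 ∨ v ≠ 0) ∧ (v = 0 → u = a)

theorem not_dvd_of_dvd {ℓ : ℕ} (hℓ : ℓ.Prime) {W : ℤ} (h : (ℓ : ℤ) ∣ 2 * W - 1) :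
    ¬ (ℓ : ℤ) ∣ W := by
  intro hW
  have h1 : (ℓ : ℤ) ∣ 1 := by
    have := dvd_sub (hW.mul_left 2) h
    rwa [sub_sub_cancel] at this
  exact hℓ.ne_one (by exact_mod_cast Int.eq_one_of_dvd_one (by positivity) h1)

theorem eq_neg_one {p q a : ℕ} (hp : p.Prime) (hq : q.Prime) {W : ℤ}
    (hW : Good p q a W) (hpW : ¬ (p : ℤ) ∣ W) (hqW : ¬ (q : ℤ) ∣ W) :
    W = -1 ∧ (2 * W - 1).natAbs = 3 := by
  obtain ⟨hpr, u, v, he, huv, -⟩ := hW
  have h1 : W.natAbs = 1 := by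
    by_contra h
    obtain ⟨ℓ, hℓ, hd⟩ := Nat.exists_prime_and_dvd h
    rcases hpr ℓ hℓ (Int.natCast_dvd.2 hd) with rfl | rfl
    exacts [hpW (Int.natCast_dvd.2 hd), hqW (Int.natCast_dvd.2 hd)]
  rcases Int.natAbs_eq W with h | h <;> rw [h1] at h
  · exfalso
    subst h
    have h2 : 1 < p ^ u * q ^ v := by
      rcases huv with h | h
      · exact lt_of_lt_of_le (Nat.one_lt_pow h hp.one_lt) (Nat.le_mul_of_pos_right _ (pow_pos hq.pos _))
      · exact lt_of_lt_of_le (Nat.one_lt_pow h hq.one_lt) (Nat.le_mul_of_pos_left _ (pow_pos hp.pos _))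
    simp at he
    omega
  · subst h; exact ⟨by norm_num, by norm_num⟩

theorem dvd_of_natAbs {ℓ n : ℕ} {W : ℤ} (h : W.natAbs = n) (hd : ℓ ∣ n) : (ℓ : ℤ) ∣ W :=
  Int.natCast_dvd.2 (h ▸ hd)

theorem eq_of_pow_eq {r s i : ℕ} (_hr : r.Prime) (hs : s.Prime) (h : r ^ i = s) : r = s ∧ i = 1 := by
  have hi : i = 1 := (h ▸ hs : (r ^ i).Prime).eq_one_of_pow
  subst hi
  exact ⟨by simpa using h, rfl⟩

theorem core {p q a : ℕ} (hp : p.Prime) (hq : q.Prime) (hpq : p ≠ q) (ha : a ≠ 0) {X Y Z : ℤ}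
    (hX : Good p q a X) (hY : Good p q a Y) (hZ : Good p q a Z) (hsum : X + Y + Z = 1)
    (hY0 : Y ≠ 0) (hxp : (2 * X - 1).natAbs = p ^ a) {j : ℕ} (hj : j ≠ 0)
    (hyq : (2 * Y - 1).natAbs = q ^ j) :
    (2 * Y - 1).natAbs = q ∧ p ^ a * q = 15 := by
  have hpX : ¬ (p : ℤ) ∣ X := not_dvd_of_dvd hp (dvd_of_natAbs hxp (dvd_pow_self p ha))
  have hqY : ¬ (q : ℤ) ∣ Y := not_dvd_of_dvd hq (dvd_of_natAbs hyq (dvd_pow_self q hj))
  have three_prime : Nat.Prime 3 := Nat.prime_three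
  obtain ⟨u, v, hz, huv, hva⟩ := hZ.2
  rcases Nat.eq_zero_or_pos v with hv | hv
  · -- two pure powers of `p`
    have hu := hva hv
    subst hu hv
    rw [pow_zero, mul_one] at hz
    have hXZ : X = Z := by
      rcases Int.natAbs_eq_natAbs_iff.1 (hxp.trans hz.symm) with h | h <;> omega
    subst hXZ
    have hqX : ¬ (q : ℤ) ∣ X := fun h => by
      have h1 : (q : ℤ) ∣ 2 * Y - 1 := dvd_of_natAbs hyq (dvd_pow_self q hj)
      rw [show 2 * Y - 1 = 1 - 4 * X by omega] at h1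
      have h2 : (q : ℤ) ∣ 1 := by
        have := dvd_add h1 (h.mul_left 4)
        rwa [sub_add_cancel] at this
      exact hq.ne_one (by exact_mod_cast Int.eq_one_of_dvd_one (by positivity) h2)
    obtain ⟨rfl, h3⟩ := eq_neg_one hp hq hX hpX hqX
    obtain rfl : Y = 3 := by omega
    rw [show ((2 : ℤ) * 3 - 1).natAbs = 5 from rfl] at hyq ⊢
    rw [h3] at hxp
    obtain ⟨rfl, rfl⟩ := eq_of_pow_eq hq (by norm_num : Nat.Prime 5) hyq.symm
    exact ⟨rfl, by rw [← hxp]⟩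
  · rcases Nat.eq_zero_or_pos u with hu | hu
    · -- two pure powers of `q`
      subst hu
      rw [pow_zero, one_mul] at hz
      have hqZ : ¬ (q : ℤ) ∣ Z := not_dvd_of_dvd hq (dvd_of_natAbs hz (dvd_pow_self q hv.ne'))
      have hpx : (p : ℤ) ∣ 2 * X - 1 := dvd_of_natAbs hxp (dvd_pow_self p ha)
      have hp1 : ¬ ((p : ℤ) ∣ Y ∧ (p : ℤ) ∣ Z) := by
        rintro ⟨hy, hz'⟩
        rw [show 2 * X - 1 = 1 - 2 * (Y + Z) by omega] at hpx
        have h2 : (p : ℤ) ∣ 1 := by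
          have := dvd_add hpx ((dvd_add hy hz').mul_left 2)
          rwa [sub_add_cancel] at this
        exact hp.ne_one (by exact_mod_cast Int.eq_one_of_dvd_one (by positivity) h2)
      have hp3 : q = 3 → ∀ W : ℤ, X + W = 2 → ¬ (p : ℤ) ∣ W := by
        intro hq3 W hW hd
        rw [show 2 * X - 1 = 3 - 2 * W by omega] at hpx
        have h2 : (p : ℤ) ∣ 3 := by
          have := dvd_add hpx (hd.mul_left 2)
          rwa [sub_add_cancel] at this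
        exact hpq ((((Nat.prime_dvd_prime_iff_eq hp three_prime).1 (by exact_mod_cast h2))).trans hq3.symm)
      have hboth : Y = -1 ∧ Z = -1 ∧ q = 3 := by
        by_cases hpY : (p : ℤ) ∣ Y
        · obtain ⟨rfl, h3⟩ := eq_neg_one hp hq hZ (fun h => hp1 ⟨hpY, h⟩) hqZ
          obtain ⟨hq3, -⟩ := eq_of_pow_eq hq three_prime (hz.symm.trans h3)
          exact absurd hpY (hp3 hq3 Y (by omega))
        · obtain ⟨rfl, h3⟩ := eq_neg_one hp hq hY hpY hqY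
          obtain ⟨hq3, -⟩ := eq_of_pow_eq hq three_prime (hyq.symm.trans h3)
          obtain ⟨rfl, -⟩ := eq_neg_one hp hq hZ (hp3 hq3 Z (by omega)) hqZ
          exact ⟨rfl, rfl, hq3⟩
      obtain ⟨rfl, rfl, rfl⟩ := hboth
      obtain rfl : X = 3 := by omega
      exact ⟨rfl, by rw [← hxp]; rfl⟩
    · exfalso
      have hd : ∀ {ℓ : ℕ}, ℓ.Prime → ℓ ∣ p ^ u * q ^ v → ¬ (ℓ : ℤ) ∣ Z := fun hℓ h =>
        not_dvd_of_dvd hℓ (dvd_of_natAbs hz h)
      obtain ⟨-, h3⟩ := eq_neg_one hp hq hZ (hd hp ((dvd_pow_self p hu.ne').mul_right _))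
        (hd hq ((dvd_pow_self q hv.ne').mul_left _))
      rw [h3] at hz
      have h1 : 2 * 2 ≤ p ^ u * q ^ v := Nat.mul_le_mul
        (hp.two_le.trans (Nat.le_self_pow hu.ne' p)) (hq.two_le.trans (Nat.le_self_pow hv.ne' q))
      omega

variable {G : Type*} [Group G] [Finite G] [IsSimpleGroup G]

theorem not_isMulCommutative (hna : ∃ x y : G, x * y ≠ y * x) : ¬ IsMulCommutative G := by
  obtain ⟨x, y, h⟩ := hna
  exact fun hc => h (hc.is_comm.comm x y)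

theorem false_of_two_primes (hna : ∃ x y : G, x * y ≠ y * x) {p q a b : ℕ} (hp : p.Prime)
    (hq : q.Prime) (h : Nat.card G ∣ p ^ a * q ^ b) : False := by
  haveI := isSolvable_of_card_dvd_pow_mul_pow p q a b hp hq h
  obtain ⟨x, y, hxy⟩ := hna
  exact hxy (IsSimpleGroup.comm_iff_isSolvable.2 this x y)

/-- A character of `p`-power degree in a simple group with abelian Sylow `p`-subgroup has degree
the order of that subgroup. -/
theorem eq_sylow_of_primePow (hna : ∃ x y : G, x * y ≠ y * x) {p u : ℕ} [Fact p.Prime]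
    (P : Sylow p G) (hPab : ∀ x ∈ P, ∀ y ∈ P, x * y = y * x) {χ : IrrCharacter G}
    (hχ : (χ : G → ℂ) ≠ fun _ => 1) (hd : charDegree (χ : G → ℂ) = p ^ u) :
    Nat.card (P : Subgroup G) = p ^ u := by
  have hvan : ∀ y ∈ (P : Subgroup G), y ≠ 1 → (χ : G → ℂ) y = 0 := fun y hy h1 => by
    refine CfsgLib.Blocks.irr_eq_zero_of_coprime hna χ hχ h1 ?_
    rw [hd]
    refine Nat.Coprime.pow_left _ ((Fact.out : p.Prime).coprime_iff_not_dvd.2 fun h =>
      P.not_dvd_index (h.trans (Subgroup.index_dvd_of_le fun x hx => ?_)))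
    exact Subgroup.mem_centralizer_singleton_iff.2 (hPab x hx y hy)
  refine Nat.dvd_antisymm (hd ▸ CfsgLib.CharDegreesTheory.PrimeDegrees.card_dvd_degree _ χ hvan) ?_
  obtain ⟨k, hk⟩ := IsPGroup.iff_card.1 P.isPGroup'
  rw [hk]
  refine Nat.pow_dvd_pow p ?_
  have hdvd : p ^ u ∣ Nat.card G := hd ▸ (BrauerCharacters.charDegree_spec χ).2.2
  have := Subgroup.card_dvd_of_le (le_refl (P : Subgroup G))
  have h2 := P.pow_dvd_card_of_pow_dvd_card hdvd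
  rw [hk] at h2
  exact (Nat.pow_dvd_pow_iff_le_right (Fact.out : p.Prime).one_lt).1 h2

/-- Cofactor four. -/
theorem card_eq_sixty (hna : ∃ x y : G, x * y ≠ y * x) {p q a b : ℕ} (hp : p.Prime) (hq : q.Prime)
    (hpq : p ≠ q) (ha : a ≤ 2) (hG : Nat.card G = 4 * p ^ a * q ^ b) : Nat.card G = 60 := by
  classical
  haveI := Fact.mk hp
  haveI := Fact.mk hq
  haveI : Fact (Nat.Prime 2) := ⟨Nat.prime_two⟩
  haveI := Fintype.ofFinite G
  haveI := Fintype.ofFinite (IrrCharacter G)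
  have ha0 : a ≠ 0 := fun h => false_of_two_primes hna (a := 2) Nat.prime_two hq
    (dvd_of_eq (by rw [hG, h, pow_zero, mul_one]; norm_num) : Nat.card G ∣ 2 ^ 2 * q ^ b)
  have hb0 : b ≠ 0 := fun h => false_of_two_primes hna (a := 2) Nat.prime_two hp
    (dvd_of_eq (by rw [hG, h, pow_zero, mul_one]; norm_num) : Nat.card G ∣ 2 ^ 2 * p ^ a)
  have hp2 : p ≠ 2 := fun h => false_of_two_primes hna (a := 2 + a) Nat.prime_two hq
    (dvd_of_eq (by rw [hG, h, pow_add]; norm_num) : Nat.card G ∣ 2 ^ (2 + a) * q ^ b)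
  have hq2 : q ≠ 2 := fun h => false_of_two_primes hna (a := 2 + b) Nat.prime_two hp
    (dvd_of_eq (by rw [hG, h, pow_add]; ring) : Nat.card G ∣ 2 ^ (2 + b) * p ^ a)
  set g₀ := p ^ a * q ^ b with hg₀
  have hodd : Odd g₀ := (hp.odd_of_ne_two hp2).pow.mul (hq.odd_of_ne_two hq2).pow
  have hG4 : Nat.card G = 4 * g₀ := by rw [hG, mul_assoc]
  have hg1 : 1 < g₀ := lt_of_lt_of_le (Nat.one_lt_pow ha0 hp.one_lt)
    (Nat.le_mul_of_pos_right _ (pow_pos hq.pos _))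
  have hnc : ¬ ∃ N : Subgroup G, N.Normal ∧ Nat.card N = g₀ := by
    rintro ⟨N, hN, hc⟩
    rcases hN.eq_bot_or_eq_top with h | h
    · rw [h, Subgroup.card_bot] at hc; omega
    · rw [h, Subgroup.card_top, hG4] at hc; omega
  obtain ⟨S⟩ := (inferInstance : Nonempty (Sylow 2 G))
  obtain ⟨hK, hconj⟩ := CharDegreesTheory.klein_setting hodd hG4 hnc S
  obtain ⟨J, J', hJS, -, hJ1, -, -⟩ := Involutions.klein_exists_pair hK
  have hJ : orderOf J = 2 := by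
    rcases Involutions.eq_one_or_two_of_klein hK hJS with h | h
    exacts [absurd h hJ1, h]
  obtain ⟨M, hM⟩ := CharDegreesTheory.exists_isPModular Nat.prime_two
  haveI := Blocks.isPrime_of_isPModular hM
  have hcj : ∀ z : G, orderOf z = 2 → IsConj J z := fun z hz => hconj J z hJ hz
  obtain ⟨-, -, hpm, hcard, -⟩ := Involutions.klein_principal_block hM S hK hJ hJS hcj
  set B0 := Finset.univ.filter (fun φ : IrrCharacter G => φ ∈ principalBlock M G) with hB0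
  have htB : trivIrr G ∈ B0 := by
    simp [hB0, ZerosCodegree.trivIrr_mem_principalBlock]
  obtain ⟨χ₁, χ₂, χ₃, d12, d13, d23, he⟩ := Finset.card_eq_three.1
    (show (B0.erase (trivIrr G)).card = 3 by rw [Finset.card_erase_of_mem htB, hcard])
  have hmem : ∀ φ, φ = χ₁ ∨ φ = χ₂ ∨ φ = χ₃ → φ ∈ principalBlock M G ∧ φ ≠ trivIrr G := fun φ h => by
    have h' : φ ∈ B0.erase (trivIrr G) := by rw [he]; simpa using h
    rw [Finset.mem_erase, hB0, Finset.mem_filter] at h'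
    exact ⟨h'.2.2, h'.1⟩
  have hne1 : ∀ φ, φ = χ₁ ∨ φ = χ₂ ∨ φ = χ₃ → (φ : G → ℂ) ≠ fun _ => 1 := fun φ h e =>
    (hmem φ h).2 (Subtype.ext (e.trans (funext fun x => (trivIrr_apply x).symm)))
  have hB : principalBlock M G = {χ : IrrCharacter G |
      (χ : G → ℂ) = (fun _ => 1) ∨ χ = χ₁ ∨ χ = χ₂ ∨ χ = χ₃} := by
    ext φ
    simp only [Set.mem_ofPred_eq]
    constructor
    · intro h
      by_cases ht : φ = trivIrr G
      · exact Or.inl (funext fun x => by rw [ht, trivIrr_apply])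
      · have h' : φ ∈ B0.erase (trivIrr G) := Finset.mem_erase.2 ⟨ht, by simp [hB0, h]⟩
        rw [he] at h'
        exact Or.inr (by simpa using h')
    · rintro (h | h)
      · have : φ = trivIrr G := Subtype.ext (h.trans (funext fun x => (trivIrr_apply x).symm))
        exact this ▸ (Finset.mem_filter.1 htB).2
      · exact (hmem φ h).1
  have hdist : (χ₁ : G → ℂ) ≠ (fun _ => 1) ∧ (χ₂ : G → ℂ) ≠ (fun _ => 1) ∧
      (χ₃ : G → ℂ) ≠ (fun _ => 1) ∧ χ₁ ≠ χ₂ ∧ χ₁ ≠ χ₃ ∧ χ₂ ≠ χ₃ :=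
    ⟨hne1 _ (Or.inl rfl), hne1 _ (Or.inr (Or.inl rfl)), hne1 _ (Or.inr (Or.inr rfl)), d12, d13, d23⟩
  have hsign : ∀ φ, φ = χ₁ ∨ φ = χ₂ ∨ φ = χ₃ →
      ∃ e : ℤ, (e = 1 ∨ e = -1) ∧ (φ : G → ℂ) J = e := fun φ h => by
    rcases hpm φ (hmem φ h).1 with e | e
    · exact ⟨1, Or.inl rfl, by simp [e]⟩
    · exact ⟨-1, Or.inr rfl, by simp [e]⟩
  obtain ⟨ε₁, he1, hv1⟩ := hsign χ₁ (Or.inl rfl)
  obtain ⟨ε₂, he2, hv2⟩ := hsign χ₂ (Or.inr (Or.inl rfl))
  obtain ⟨ε₃, he3, hv3⟩ := hsign χ₃ (Or.inr (Or.inr rfl))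
  obtain ⟨h1, h2⟩ := CharDegreesTheory.degree_equations hM S hK hJ hJS hcj χ₁ χ₂ χ₃ hB hdist
    ⟨hv1, hv2, hv3⟩
  set f : IrrCharacter G → ℕ := fun φ => charDegree (φ : G → ℂ) with hf
  set cP := Nat.card (Subgroup.centralizer ((S : Subgroup G) : Set G)) with hcP
  set cJ := Nat.card (Subgroup.centralizer ({J} : Set G)) with hcJ
  have h4S : Nat.card (S : Subgroup G) = 4 := hK.card_four
  have hScomm : ∀ x ∈ (S : Subgroup G), ∀ y ∈ (S : Subgroup G), x * y = y * x := fun x hx y hy =>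
    congrArg Subtype.val ((IsKleinFour.isMulCommutative (G := ↥(S : Subgroup G))).is_comm.comm
      ⟨x, hx⟩ ⟨y, hy⟩)
  obtain ⟨c, hc⟩ : 4 ∣ cP := h4S ▸ Subgroup.card_dvd_of_le fun x hx =>
    Subgroup.mem_centralizer_iff.2 fun y hy => hScomm y hy x hx
  obtain ⟨d, hd⟩ : 4 ∣ cJ := h4S ▸ Subgroup.card_dvd_of_le fun x hx =>
    Subgroup.mem_centralizer_singleton_iff.2 (hScomm x hx J hJS)
  have hdg : d ∣ g₀ := Nat.dvd_of_mul_dvd_mul_left (by norm_num) (hd ▸ hG4 ▸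
    Subgroup.card_subgroup_dvd_card (Subgroup.centralizer ({J} : Set G)) : 4 * d ∣ 4 * g₀)
  have hfo : ∀ φ, φ = χ₁ ∨ φ = χ₂ ∨ φ = χ₃ → Odd (f φ) := fun φ h =>
    CharDegreesTheory.odd_charDegree hM S hK hJ hJS hcj (hmem φ h).1
  have hfg : ∀ φ, φ = χ₁ ∨ φ = χ₂ ∨ φ = χ₃ → f φ ∣ g₀ := fun φ h =>
    ((Nat.coprime_two_right.2 (hfo φ h)).pow_right 2).dvd_of_dvd_mul_left
      (hG4 ▸ (BrauerCharacters.charDegree_spec φ).2.2 : f φ ∣ 4 * g₀)
  have hf1 : ∀ φ, φ = χ₁ ∨ φ = χ₂ ∨ φ = χ₃ → f φ ≠ 1 := fun φ h e =>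
    hne1 φ h (Blocks.eq_one_of_degree_one hna φ (by
      rw [(BrauerCharacters.charDegree_spec φ).1]
      show ((f φ : ℕ) : ℂ) = 1
      rw [e, Nat.cast_one]))
  -- halves
  have hhalf : ∀ φ e, (φ = χ₁ ∨ φ = χ₂ ∨ φ = χ₃) → (e = 1 ∨ e = (-1 : ℤ)) →
      ∃ W : ℤ, 2 * W - 1 = e * f φ := by
    intro φ e h he'
    obtain ⟨k, hk⟩ := hfo φ h
    rcases he' with rfl | rfl
    · exact ⟨k + 1, by rw [hk]; push_cast; ring⟩
    · exact ⟨-(k : ℤ), by rw [hk]; push_cast; ring⟩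
  obtain ⟨X, hX⟩ := hhalf χ₁ ε₁ (Or.inl rfl) he1
  obtain ⟨Y, hY⟩ := hhalf χ₂ ε₂ (Or.inr (Or.inl rfl)) he2
  obtain ⟨Z, hZ⟩ := hhalf χ₃ ε₃ (Or.inr (Or.inr rfl)) he3
  have hsum : X + Y + Z = 1 := by
    show X + Y + Z = 1
    simp only [hf] at hX hY hZ
    linarith
  have hkey : (g₀ : ℤ) * (c : ℤ) ^ 2 * (X * Y * Z) =
      (d : ℤ) ^ 3 * ((2 * X - 1) * (2 * Y - 1) * (2 * Z - 1)) := by
    have hprod : (2 * X) * (2 * Y) * (2 * Z) = ε₁ * ε₂ * ε₃ *
        ((f χ₁ : ℤ) * f χ₂ * f χ₃ + ε₁ * f χ₂ * f χ₃ + ε₂ * f χ₁ * f χ₃ + ε₃ * f χ₁ * f χ₂) := by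
      have e1 : 2 * X = 1 + ε₁ * f χ₁ := by linarith
      have e2 : 2 * Y = 1 + ε₂ * f χ₂ := by linarith
      have e3 : 2 * Z = 1 + ε₃ * f χ₃ := by linarith
      rw [e1, e2, e3]
      rcases he1 with rfl | rfl <;> rcases he2 with rfl | rfl <;> rcases he3 with rfl | rfl <;>
        simp only [hf] <;> linear_combination h1
    have h2' : (Nat.card G : ℤ) * ((2 * X) * (2 * Y) * (2 * Z)) * (cP : ℤ) ^ 2 =
        8 * (cJ : ℤ) ^ 3 * ((2 * X - 1) * (2 * Y - 1) * (2 * Z - 1)) := by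
      rw [hprod, hX, hY, hZ]
      simp only [hf]
      linear_combination (ε₁ * ε₂ * ε₃) * h2
    rw [hG4, hc, hd] at h2'
    push_cast at h2'
    refine mul_left_cancel₀ (show (512 : ℤ) ≠ 0 by norm_num) ?_
    linear_combination h2'
  have hprimes : ∀ W : ℤ, W = X ∨ W = Y ∨ W = Z → ∀ ℓ : ℕ, ℓ.Prime → (ℓ : ℤ) ∣ W →
      ℓ = p ∨ ℓ = q := by
    intro W hW ℓ hℓ hdW
    have h3 : (ℓ : ℤ) ∣ (d : ℤ) ^ 3 * (ε₁ * f χ₁ * (ε₂ * f χ₂) * (ε₃ * f χ₃)) := by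
      rw [← hX, ← hY, ← hZ, ← hkey]
      refine dvd_mul_of_dvd_right ?_ _
      rcases hW with rfl | rfl | rfl
      exacts [(hdW.mul_right _).mul_right _, (hdW.mul_left _).mul_right _, hdW.mul_left _]
    have hℓ' : Prime (ℓ : ℤ) := Nat.prime_iff_prime_int.1 hℓ
    have hg : ℓ ∣ g₀ := by
      have hnot : ∀ e : ℤ, (e = 1 ∨ e = -1) → ¬ (ℓ : ℤ) ∣ e := by
        rintro e (rfl | rfl) h <;>
          exact hℓ.ne_one (by simpa using Int.natAbs_dvd_natAbs.2 h)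
      rcases hℓ'.dvd_mul.1 h3 with h | h
      · exact (Int.natCast_dvd_natCast.1 (hℓ'.dvd_of_dvd_pow h)).trans hdg
      rcases hℓ'.dvd_mul.1 h with h | h
      · rcases hℓ'.dvd_mul.1 h with h | h
        · exact (Int.natCast_dvd_natCast.1 ((hℓ'.dvd_mul.1 h).resolve_left (hnot _ he1))).trans
            (hfg _ (Or.inl rfl))
        · exact (Int.natCast_dvd_natCast.1 ((hℓ'.dvd_mul.1 h).resolve_left (hnot _ he2))).trans
            (hfg _ (Or.inr (Or.inl rfl)))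
      · exact (Int.natCast_dvd_natCast.1 ((hℓ'.dvd_mul.1 h).resolve_left (hnot _ he3))).trans
          (hfg _ (Or.inr (Or.inr rfl)))
    rcases hℓ.dvd_mul.1 hg with h | h
    · exact Or.inl ((Nat.prime_dvd_prime_iff_eq hℓ hp).1 (hℓ.dvd_of_dvd_pow h))
    · exact Or.inr ((Nat.prime_dvd_prime_iff_eq hℓ hq).1 (hℓ.dvd_of_dvd_pow h))
  -- the Sylow subgroup for `p`
  obtain ⟨P⟩ := (inferInstance : Nonempty (Sylow p G))
  have hco4 : ∀ r : ℕ, r.Prime → r ≠ 2 → (4 : ℕ).factorization r = 0 := fun r hr hr2 =>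
    Nat.factorization_eq_zero_of_not_dvd fun h =>
      hr2 ((Nat.prime_dvd_prime_iff_eq hr Nat.prime_two).1 (hr.dvd_of_dvd_pow (n := 2) h))
  have hPcard : Nat.card (P : Subgroup G) = p ^ a := by
    rw [P.card_eq_multiplicity, hG, Nat.factorization_mul (Nat.mul_ne_zero (by norm_num) (pow_ne_zero _ hp.ne_zero)) (pow_ne_zero _ hq.ne_zero),
      Nat.factorization_mul (by norm_num) (pow_ne_zero _ hp.ne_zero)]
    simp [Nat.factorization_pow, hp.factorization, hq.factorization, hco4 p hp hp2, hpq]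
  have hPab : ∀ x ∈ P, ∀ y ∈ P, x * y = y * x := by
    intro x hx y hy
    refine congrArg Subtype.val (?_ : (⟨x, hx⟩ : (P : Subgroup G)) * ⟨y, hy⟩ = ⟨y, hy⟩ * ⟨x, hx⟩)
    rcases (show a = 1 ∨ a = 2 by omega) with h | h
    · rw [h, pow_one] at hPcard
      haveI := isCyclic_of_prime_card hPcard
      exact (IsCyclic.commGroup (α := (P : Subgroup G))).mul_comm _ _
    · rw [h] at hPcard
      exact (IsPGroup.isMulCommutative_of_card_eq_prime_sq hPcard).is_comm.comm _ _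
  have hgood : ∀ φ (W e : ℤ), (φ = χ₁ ∨ φ = χ₂ ∨ φ = χ₃) → (W = X ∨ W = Y ∨ W = Z) →
      (e = 1 ∨ e = -1) → 2 * W - 1 = e * f φ → Good p q a W ∧ (2 * W - 1).natAbs = f φ := by
    intro φ W e hφ hW he' hW'
    have habs : (2 * W - 1).natAbs = f φ := by
      rw [hW']; rcases he' with rfl | rfl <;> simp
    refine ⟨⟨hprimes W hW, ?_⟩, habs⟩
    obtain ⟨k1, k2, hk1, hk2, hk⟩ := exists_dvd_and_dvd_of_dvd_mul (hfg φ hφ)
    obtain ⟨u, hu, rfl⟩ := (Nat.dvd_prime_pow hp).1 hk1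
    obtain ⟨v, hv, rfl⟩ := (Nat.dvd_prime_pow hq).1 hk2
    refine ⟨u, v, habs.trans hk, ?_, fun hv0 => ?_⟩
    · by_contra h
      push Not at h
      exact hf1 φ hφ (by rw [hk, h.1, h.2]; rfl)
    · refine Nat.pow_right_injective hp.two_le ?_
      show p ^ u = p ^ a
      rw [← hPcard]
      exact (eq_sylow_of_primePow hna P hPab (hne1 φ hφ)
        (show charDegree (φ : G → ℂ) = p ^ u by
          show f φ = p ^ u
          rw [hk, hv0, pow_zero, mul_one])).symm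
  obtain ⟨gX, aX⟩ := hgood χ₁ X ε₁ (Or.inl rfl) (Or.inl rfl) he1 hX
  obtain ⟨gY, aY⟩ := hgood χ₂ Y ε₂ (Or.inr (Or.inl rfl)) (Or.inr (Or.inl rfl)) he2 hY
  obtain ⟨gZ, aZ⟩ := hgood χ₃ Z ε₃ (Or.inr (Or.inr rfl)) (Or.inr (Or.inr rfl)) he3 hZ
  -- a pure power of each of the two primes
  have hpure : ∀ r : ℕ, r.Prime → ∃ W : ℤ, (W = X ∨ W = Y ∨ W = Z) ∧
      ¬ r ∣ (2 * W - 1).natAbs := by
    intro r hr
    by_contra hall
    push Not at hall
    have := dvd_add (dvd_add (Int.natCast_dvd.2 (hall X (Or.inl rfl)))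
      (Int.natCast_dvd.2 (hall Y (Or.inr (Or.inl rfl))))) (Int.natCast_dvd.2 (hall Z (Or.inr (Or.inr rfl))))
    rw [show (2 * X - 1) + (2 * Y - 1) + (2 * Z - 1) = -1 by omega, dvd_neg] at this
    exact hr.ne_one (by exact_mod_cast Int.eq_one_of_dvd_one (by positivity) this)
  have hsel : ∀ W, (W = X ∨ W = Y ∨ W = Z) →
      Good p q a W ∧ ∃ φ, (φ = χ₁ ∨ φ = χ₂ ∨ φ = χ₃) ∧ (2 * W - 1).natAbs = f φ := by
    rintro W (rfl | rfl | rfl)
    exacts [⟨gX, χ₁, Or.inl rfl, aX⟩, ⟨gY, χ₂, Or.inr (Or.inl rfl), aY⟩,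
      ⟨gZ, χ₃, Or.inr (Or.inr rfl), aZ⟩]
  obtain ⟨A, hA, hAq⟩ := hpure q hq
  obtain ⟨B, hB', hBp⟩ := hpure p hp
  obtain ⟨gA, -⟩ := hsel A hA
  obtain ⟨gB, φ, hφ, haφ⟩ := hsel B hB'
  obtain ⟨u, v, huv', hne, hva⟩ := gA.2
  obtain rfl : v = 0 := by
    by_contra h
    exact hAq (huv' ▸ (dvd_pow_self q h).mul_left _)
  obtain rfl := hva rfl
  rw [pow_zero, mul_one] at huv'
  obtain ⟨u', j, hj', hne', -⟩ := gB.2
  obtain rfl : u' = 0 := by
    by_contra h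
    exact hBp (hj' ▸ (dvd_pow_self p h).mul_right _)
  rw [pow_zero, one_mul] at hj'
  have hj : j ≠ 0 := by rcases hne' with h | h <;> [exact absurd rfl h; exact h]
  have hAB : A ≠ B := by
    rintro rfl
    exact hBp (huv'.symm ▸ dvd_pow_self p ha0)
  obtain ⟨C, hC, hABC⟩ : ∃ C, (C = X ∨ C = Y ∨ C = Z) ∧ A + B + C = 1 := by
    rcases hA with rfl | rfl | rfl <;> rcases hB' with rfl | rfl | rfl <;>
      first
        | exact absurd rfl hAB
        | exact ⟨_, Or.inl rfl, by linarith⟩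
        | exact ⟨_, Or.inr (Or.inl rfl), by linarith⟩
        | exact ⟨_, Or.inr (Or.inr rfl), by linarith⟩
  obtain ⟨hBq, h15⟩ := core hp hq hpq ha0 gA gB (hsel C hC).1 hABC
    (fun h => by
      rw [h] at hj'
      exact absurd hj'.symm (Nat.one_lt_pow hj hq.one_lt).ne') huv' hj hj'
  obtain ⟨Q⟩ := (inferInstance : Nonempty (Sylow q G))
  have hQ := CharDegreesTheory.PrimeDegrees.card_sylow (not_isMulCommutative hna)
    (χ := φ) (show f φ = q from haφ.symm.trans hBq) Q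
  rw [Q.card_eq_multiplicity, hG, Nat.factorization_mul (Nat.mul_ne_zero (by norm_num) (pow_ne_zero _ hp.ne_zero)) (pow_ne_zero _ hq.ne_zero),
    Nat.factorization_mul (by norm_num) (pow_ne_zero _ hp.ne_zero)] at hQ
  simp [Nat.factorization_pow, hp.factorization, hq.factorization, hco4 q hq hq2, hpq] at hQ
  rw [hG, mul_assoc, hQ, h15]
  all_goals norm_num

theorem four_case (hna : ∃ x y : G, x * y ≠ y * x) {p q a b : ℕ} (hp : p.Prime) (hq : q.Prime)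
    (hpq : p ≠ q) (ha : a ≤ 2) (hG : Nat.card G = 4 * p ^ a * q ^ b) :
    Nonempty (G ≃* alternatingGroup (Fin 5)) := by
  have h60 := card_eq_sixty hna hp hq hpq ha hG
  refine CfsgLib.SL2.Dickson.Sixty.nonempty_mulEquiv_alternating_five h60 fun R hR hn => ?_
  rcases hn.eq_bot_or_eq_top with h | h
  · rw [h, Subgroup.card_bot] at hR; omega
  · rw [h, Subgroup.card_top, h60] at hR; omega

end CfsgLib.Fixity.SmallCofactor
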