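import Cfsg.Agent.Lib.Fixity.SmallCofactor
import Cfsg.Agent.Lib.SmallGroups.BrauerReynoldsMain
import Cfsg.Agent.Lib.SmallGroups.Order168
import Cfsg.Agent.Lib.SmallGroups.FixedSets
import Cfsg.Agent.Lib.ClassicalLinear.Card
import Cfsg.Agent.Lib.Coherence.Constituent

/-!
# Simple groups of order `3 p^a q^b`, `a ≤ 2`

An element of order three is self-centralising, so exactly three characters are non-zero on it;
the class product with a central involution bounds the 2-part of the order by `2 p + 2`.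
-/

set_option autoImplicit false
set_option linter.style.haveILetI false
set_option linter.unusedSectionVars false

namespace CfsgLib.Fixity.SmallCofactor

open Cfsg CfsgLib CfsgLib.CharTheory
open scoped ComplexConjugate

theorem numeric_end {p i k e : ℕ} (hp5 : 5 ≤ p) (hpow : 2 ^ i = p + 1 ∨ p = 2 ^ i + 1)
    (hk : 1 ≤ k) (he : 2 ≤ e) (heq : (1 + k * p) * e = 3 * 2 ^ i) :
    (p = 5 ∧ 2 ^ i = 4) ∨ (1 + k * p = p + 1 ∧ 2 ^ i = p + 1 ∧ e = 3) := by
  have he3 : e ≤ 3 := by
    by_contra h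
    have h1 : (1 + p) * 4 ≤ (1 + k * p) * e :=
      Nat.mul_le_mul (by nlinarith) (by omega)
    omega
  have hk2 : k ≤ 2 := by
    by_contra h
    have h1 : (1 + 3 * p) * 2 ≤ (1 + k * p) * e := Nat.mul_le_mul (by nlinarith) he
    omega
  obtain rfl | rfl : e = 2 ∨ e = 3 := by omega
  · obtain rfl | rfl : k = 1 ∨ k = 2 := by omega
    · omega
    · omega
  · obtain rfl | rfl : k = 1 ∨ k = 2 := by omega
    · omega
    · omega

variable {G : Type*} [Group G] [Finite G] [IsSimpleGroup G]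

theorem false_two_mul_odd (hna : ∃ x y : G, x * y ≠ y * x) {m : ℕ} (hm : Odd m)
    (hG : Nat.card G = 2 * m) : False := by
  obtain ⟨k, hk⟩ := SmallGroups.four_dvd_card (not_isMulCommutative hna) ⟨m, hG⟩
  obtain ⟨r, hr⟩ := hm
  omega

set_option maxHeartbeats 1600000 in
/-- Cofactor three, with the remaining order `2^b p^a`. -/
theorem three_two_case (hna : ∃ x y : G, x * y ≠ y * x) {p a b : ℕ} [Fact p.Prime] (hp2 : p ≠ 2)
    (hp3 : p ≠ 3) (ha : a ≤ 2) (hG : Nat.card G = 3 * p ^ a * 2 ^ b) :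
    Nonempty (G ≃* alternatingGroup (Fin 5)) ∨
      Nonempty (G ≃* Matrix.ProjectiveSpecialLinearGroup (Fin 2) (ZMod 7)) := by
  classical
  have hp : p.Prime := Fact.out
  have hnc := not_isMulCommutative hna
  haveI : Fact (Nat.Prime 2) := ⟨Nat.prime_two⟩
  haveI : Fact (Nat.Prime 3) := ⟨Nat.prime_three⟩
  haveI := Fintype.ofFinite G
  haveI := Fintype.ofFinite (IrrCharacter G)
  have hp5 : 5 ≤ p := by
    have h4 : p ≠ 4 := fun h => by rw [h] at hp; exact absurd hp (by norm_num)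
    have := hp.two_le
    omega
  have ha0 : a ≠ 0 := fun h => false_of_two_primes hna (p := 3) (q := 2) (a := 1) (b := b)
    Nat.prime_three Nat.prime_two (by rw [hG, h, pow_zero, mul_one, pow_one])
  -- the element of order three
  have hm3 : ¬ 3 ∣ p ^ a * 2 ^ b := fun h => by
    rcases Nat.prime_three.dvd_mul.1 h with h | h
    · exact hp3 ((Nat.prime_dvd_prime_iff_eq Nat.prime_three hp).1
        (Nat.prime_three.dvd_of_dvd_pow h)).symm
    · exact absurd (Nat.prime_three.dvd_of_dvd_pow h) (by norm_num)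
  have hn3 : Nat.card G = 3 * (p ^ a * 2 ^ b) := by rw [hG, mul_assoc]
  obtain ⟨S⟩ := (inferInstance : Nonempty (Sylow 3 G))
  have hS : Nat.card (S : Subgroup G) = 3 := by
    simpa using SmallGroups.card_sylow_eq (a := 1) (m := p ^ a * 2 ^ b) (by rw [hn3, pow_one]) hm3 S
  have hC : Subgroup.centralizer (S : Set G) = (S : Subgroup G) :=
    Blocks.centralizer_sylow_of_card (p := p) (a := a) (b := b) Nat.prime_two hp3 (by norm_num)
      (by rw [hG]; ring) S
  obtain ⟨c, e, hc, hNS, he1, hed, -⟩ := SmallGroups.sylow_prime_data hnc hn3 hm3 S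
  obtain rfl : e = 2 := by
    have := Nat.le_of_dvd (by norm_num) hed
    omega
  have hCS : Nat.card ↥(Subgroup.centralizer ((S : Subgroup G) : Set G)) = 3 := by
    rw [show Subgroup.centralizer ((S : Subgroup G) : Set G) = (S : Subgroup G) from hC, hS]
  have hc1 : c = 1 := by omega
  obtain ⟨⟨t, htS⟩, ht⟩ := exists_prime_orderOf_dvd_card' (G := (S : Subgroup G)) 3 hS.symm.dvd
  rw [← Subgroup.orderOf_coe] at ht
  change orderOf t = 3 at ht
  have hzp : Subgroup.zpowers t = (S : Subgroup G) :=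
    Subgroup.eq_of_le_of_card_ge (Subgroup.zpowers_le.2 htS) (by rw [Nat.card_zpowers, ht, hS])
  have hCt : Subgroup.centralizer ({t} : Set G) = (S : Subgroup G) := by
    rw [SmallGroups.centralizer_singleton_eq_zpowers_centralizer, hzp]; exact hC
  have ht1 : t ≠ 1 := fun h => by rw [h, orderOf_one] at ht; norm_num at ht
  have hS3 : ∀ y ∈ (S : Subgroup G), y = 1 ∨ y = t ∨ y = t⁻¹ := by
    intro y hy
    rw [← hzp] at hy
    obtain ⟨i, hi, rfl⟩ := by
      simpa [Finset.mem_image] using (mem_zpowers_iff_mem_range_orderOf.1 hy)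
    rw [ht] at hi
    have ht3 : t ^ 3 = 1 := ht ▸ pow_orderOf_eq_one t
    interval_cases i
    · exact Or.inl (pow_zero t)
    · exact Or.inr (Or.inl (pow_one t))
    · exact Or.inr (Or.inr (eq_inv_of_mul_eq_one_left (by rw [← pow_succ, ht3])))
  -- `t` is conjugate to its inverse
  have hinv : ∃ g : G, g * t * g⁻¹ = t⁻¹ := by
    by_contra hno
    push Not at hno
    have hle : Subgroup.normalizer ((S : Subgroup G) : Set G) ≤
        Subgroup.centralizer ((S : Subgroup G) : Set G) := by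
      intro g hg
      have hgt : g * t * g⁻¹ ∈ (S : Subgroup G) := (Subgroup.mem_normalizer_iff.1 hg t).1 htS
      have hfix : g * t * g⁻¹ = t := by
        rcases hS3 _ hgt with h | h | h
        · exact absurd (conj_eq_one_iff.1 h) ht1
        · exact h
        · exact absurd h (hno g)
      rw [← hzp, ← SmallGroups.centralizer_singleton_eq_zpowers_centralizer,
        Subgroup.mem_centralizer_singleton_iff]
      exact mul_inv_eq_iff_eq_mul.1 hfix
    have := Subgroup.card_dvd_of_le hle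
    rw [hNS, hCS, hc1] at this
    norm_num at this
  -- values on `t` are integers
  have hreal : ∀ χ : IrrCharacter G, ∃ v : ℤ, (χ : G → ℂ) t = v ∧
      (3 : ℤ) ∣ (charDegree (χ : G → ℂ) : ℤ) + 2 * v := by
    intro χ
    obtain ⟨g, hg⟩ := hinv
    have hti : (χ : G → ℂ) t⁻¹ = (χ : G → ℂ) t := by
      rw [← hg, BrauerCharacters.apply_conj_elem]
    haveI := Fintype.ofFinite (S : Subgroup G)
    obtain ⟨k, hk⟩ := IsCharacter.exists_classInner_eq_nat
      (CfsgLib.Coherence.isCharacter_comp (IsIrrCharacter.isCharacter χ.2) (S : Subgroup G).subtype)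
      (trivIrr (S : Subgroup G))
    rw [classInner, inv_mul_eq_iff_eq_mul₀ (Nat.cast_ne_zero.2 Nat.card_pos.ne'), hS] at hk
    have huniv : (Finset.univ : Finset (S : Subgroup G)) =
        {1, ⟨t, htS⟩, ⟨t⁻¹, inv_mem htS⟩} := by
      ext y
      simp only [Finset.mem_univ, true_iff, Finset.mem_insert, Finset.mem_singleton]
      rcases hS3 y y.2 with h | h | h
      · exact Or.inl (Subtype.ext h)
      · exact Or.inr (Or.inl (Subtype.ext h))
      · exact Or.inr (Or.inr (Subtype.ext h))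
    have htt : t ≠ t⁻¹ := fun h => by
      have h2 : t ^ 2 = 1 := by rw [pow_two]; nth_rewrite 2 [h]; exact mul_inv_cancel t
      have := orderOf_dvd_of_pow_eq_one h2
      rw [ht] at this
      norm_num at this
    rw [huniv, Finset.sum_insert, Finset.sum_pair (fun h => htt (congrArg Subtype.val h))] at hk
    swap
    · simp only [Finset.mem_insert, Finset.mem_singleton]
      rintro (h | h) <;> have h' : (1 : G) = _ := congrArg Subtype.val h
      · exact ht1 h'.symm
      · exact ht1 (inv_eq_one.1 h'.symm)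
    simp only [trivIrr_apply, map_one, mul_one] at hk
    simp only [Subgroup.coe_subtype] at hk
    rw [(BrauerCharacters.charDegree_spec χ).1, hti] at hk
    obtain ⟨v, hv⟩ := exists_int_of_isIntegral_ratCast
      (q := (3 * (k : ℚ) - charDegree (χ : G → ℂ)) / 2) (by
        convert BrauerCharacters.isIntegral_apply χ t using 1
        push_cast
        linear_combination (-1 / 2 : ℂ) * hk)
    refine ⟨v, ?_, ⟨k, ?_⟩⟩
    · have hv' : ((v : ℚ) : ℂ) = (((3 * (k : ℚ) - charDegree (χ : G → ℂ)) / 2 : ℚ) : ℂ) := by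
        rw [hv]
      push_cast at hv'
      rw [hv']
      linear_combination (1 / 2 : ℂ) * hk
    · have h : ((charDegree (χ : G → ℂ) : ℚ) + 2 * v) = 3 * k := by rw [hv]; ring
      exact_mod_cast h
  choose v hv h3v using hreal
  set T := Finset.univ.filter (fun χ : IrrCharacter G => v χ ≠ 0) with hT
  have hcol : ∑ χ : IrrCharacter G, v χ ^ 2 = 3 := by
    have h := sum_mul_conj (G := G) t t
    rw [if_pos (IsConj.refl t), hCt, hS] at h
    simp only [hv, map_intCast] at h
    rw [← @Int.cast_inj ℂ]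
    push_cast
    simpa [pow_two] using h
  have hvtriv : v (trivIrr G) = 1 := by
    have h := hv (trivIrr G)
    rw [trivIrr_apply] at h
    exact_mod_cast h.symm
  have htT : trivIrr G ∈ T := by simp [hT, hvtriv]
  have hTsum : ∑ χ ∈ T, v χ ^ 2 = 3 := by
    rw [← hcol]
    exact Finset.sum_subset (Finset.subset_univ T) fun χ _ h => by simp [hT] at h; simp [h]
  have hv1 : ∀ χ ∈ T, v χ = 1 ∨ v χ = -1 := by
    intro χ hχ
    by_cases e : χ = trivIrr G
    · exact Or.inl (e ▸ hvtriv)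
    · have h := Finset.sum_le_sum_of_subset_of_nonneg (f := fun χ => v χ ^ 2)
        (show ({trivIrr G, χ} : Finset _) ⊆ T by
          intro x hx
          rcases Finset.mem_insert.1 hx with rfl | hx
          exacts [htT, (Finset.mem_singleton.1 hx) ▸ hχ]) (fun i _ _ => sq_nonneg _)
      rw [Finset.sum_pair (Ne.symm e), hTsum, hvtriv] at h
      have hne : v χ ≠ 0 := (Finset.mem_filter.1 hχ).2
      have hlt : v χ < 2 ∧ -2 < v χ := ⟨by nlinarith, by nlinarith⟩
      omega
  have hTcard : T.card = 3 := by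
    have h := hTsum
    rw [Finset.sum_congr rfl (g := fun _ => (1 : ℤ)) fun χ hχ => by
      rcases hv1 χ hχ with e | e <;> rw [e] <;> norm_num] at h
    simp only [Finset.sum_const, nsmul_eq_mul, mul_one] at h
    exact_mod_cast h
  obtain ⟨φ, ψ, hφψ, hTe⟩ := Finset.card_eq_two.1
    (show (T.erase (trivIrr G)).card = 2 by rw [Finset.card_erase_of_mem htT, hTcard])
  have hmem : ∀ χ, χ = φ ∨ χ = ψ → χ ∈ T ∧ χ ≠ trivIrr G := fun χ h => by
    have h' : χ ∈ T.erase (trivIrr G) := by rw [hTe]; simpa using h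
    exact ⟨(Finset.mem_erase.1 h').2, (Finset.mem_erase.1 h').1⟩
  set f : IrrCharacter G → ℕ := fun χ => charDegree (χ : G → ℂ) with hf
  -- sums over all characters reduce to three terms
  have hthree : ∀ F : IrrCharacter G → ℂ,
      ∑ χ : IrrCharacter G, F χ * (v χ : ℂ) = F (trivIrr G) + (F φ * v φ + F ψ * v ψ) := by
    intro F
    rw [← Finset.sum_subset (Finset.subset_univ T) fun χ _ h => by simp [hT] at h; simp [h],
      ← Finset.add_sum_erase _ _ htT, hTe, Finset.sum_pair hφψ, hvtriv, Int.cast_one, mul_one]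
  have horth : ∀ g : G, ¬ IsConj g t →
      1 + ((v φ : ℂ) * (φ : G → ℂ) g + (v ψ : ℂ) * (ψ : G → ℂ) g) = 0 := by
    intro g hg
    have h := sum_mul_conj (G := G) g t
    rw [if_neg hg] at h
    simp only [hv, map_intCast] at h
    rw [hthree, trivIrr_apply] at h
    linear_combination h
  have hxy : 1 + (v φ * f φ + v ψ * f ψ) = 0 := by
    have h := horth 1 fun h => ht1 (isConj_one_right.1 h)
    rw [(BrauerCharacters.charDegree_spec φ).1, (BrauerCharacters.charDegree_spec ψ).1] at h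
    exact_mod_cast h
  have hf1 : ∀ χ, χ = φ ∨ χ = ψ → f χ ≠ 1 := fun χ h e =>
    (hmem χ h).2 (Subtype.ext ((Blocks.eq_one_of_degree_one hna χ (by
      rw [(BrauerCharacters.charDegree_spec χ).1]
      show ((f χ : ℕ) : ℂ) = 1
      rw [e, Nat.cast_one])).trans (funext fun x => (trivIrr_apply x).symm)))
  have hf3 : ∀ χ, χ = φ ∨ χ = ψ → ¬ 3 ∣ f χ := fun χ h h3 => by
    have h1 : (3 : ℤ) ∣ (f χ : ℤ) + 2 * v χ := h3v χ
    have h2 : (3 : ℤ) ∣ (f χ : ℤ) := by exact_mod_cast h3
    rcases hv1 χ (hmem χ h).1 with e | e <;> rw [e] at h1 <;> omega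
  have hfd : ∀ χ, χ = φ ∨ χ = ψ → ∃ u i, f χ = p ^ u * 2 ^ i ∧ u ≤ a ∧ i ≤ b := fun χ h => by
    have hd : f χ ∣ p ^ a * 2 ^ b :=
      ((Nat.prime_three.coprime_iff_not_dvd.2 (hf3 χ h)).symm).dvd_of_dvd_mul_left
        (hn3 ▸ (BrauerCharacters.charDegree_spec χ).2.2 : f χ ∣ 3 * (p ^ a * 2 ^ b))
    obtain ⟨k1, k2, h1, h2, he⟩ := exists_dvd_and_dvd_of_dvd_mul hd
    obtain ⟨u, hu, rfl⟩ := (Nat.dvd_prime_pow hp).1 h1
    obtain ⟨i, hi, rfl⟩ := (Nat.dvd_prime_pow Nat.prime_two).1 h2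
    exact ⟨u, i, he, hu, hi⟩
  -- the even and the odd degree
  obtain ⟨χ₂, χp, hχ, hev⟩ : ∃ χ₂ χp, ((χ₂ = φ ∧ χp = ψ) ∨ (χ₂ = ψ ∧ χp = φ)) ∧ Even (f χ₂) := by
    by_cases h : Even (f φ)
    · exact ⟨φ, ψ, Or.inl ⟨rfl, rfl⟩, h⟩
    · refine ⟨ψ, φ, Or.inr ⟨rfl, rfl⟩, ?_⟩
      rw [Nat.not_even_iff] at h
      rw [Nat.even_iff]
      rcases hv1 φ (hmem φ (Or.inl rfl)).1 with e | e <;>
        rcases hv1 ψ (hmem ψ (Or.inr rfl)).1 with e' | e' <;> rw [e, e'] at hxy <;> omega
  have hm2 : χ₂ = φ ∨ χ₂ = ψ := by rcases hχ with ⟨h, -⟩ | ⟨h, -⟩ <;> [left; right] <;> exact h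
  have hmp : χp = φ ∨ χp = ψ := by rcases hχ with ⟨-, h⟩ | ⟨-, h⟩ <;> [right; left] <;> exact h
  have hxy' : 1 + (v χ₂ * f χ₂ + v χp * f χp) = 0 := by
    rcases hχ with ⟨rfl, rfl⟩ | ⟨rfl, rfl⟩
    exacts [hxy, by rw [add_comm (v _ * _)]; exact hxy]
  have horth' : ∀ g : G, ¬ IsConj g t →
      1 + ((v χ₂ : ℂ) * (χ₂ : G → ℂ) g + (v χp : ℂ) * (χp : G → ℂ) g) = 0 := by
    intro g hg
    rcases hχ with ⟨rfl, rfl⟩ | ⟨rfl, rfl⟩
    exacts [horth g hg, by rw [add_comm ((v _ : ℂ) * _)]; exact horth g hg]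
  have hthree' : ∀ F : IrrCharacter G → ℂ,
      ∑ χ : IrrCharacter G, F χ * (v χ : ℂ) = F (trivIrr G) + (F χ₂ * v χ₂ + F χp * v χp) := by
    intro F
    rw [hthree F]
    rcases hχ with ⟨rfl, rfl⟩ | ⟨rfl, rfl⟩ <;> ring
  obtain ⟨w, i, hfw, -, hib⟩ := hfd χ₂ hm2
  obtain ⟨u, i', hfu, hua, -⟩ := hfd χp hmp
  have hε2 := hv1 χ₂ (hmem χ₂ hm2).1
  have hεp := hv1 χp (hmem χp hmp).1
  have hoddp : ¬ Even (f χp) := by
    intro h
    obtain ⟨r, hr⟩ := h
    obtain ⟨r', hr'⟩ := hev
    rcases hε2 with e | e <;> rcases hεp with e' | e' <;> rw [e, e'] at hxy' <;> omega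
  obtain rfl : i' = 0 := by
    by_contra h
    exact hoddp (hfu ▸ ((Nat.even_pow' h).2 even_two).mul_left _)
  rw [pow_zero, mul_one] at hfu
  have hu0 : u ≠ 0 := fun h => hf1 χp hmp (by rw [hfu, h, pow_zero])
  obtain rfl : w = 0 := by
    by_contra h
    have h2 : (p : ℤ) ∣ f χ₂ := by rw [hfw]; push_cast; exact (dvd_pow_self _ h).mul_right _
    have h1 : (p : ℤ) ∣ f χp := by rw [hfu]; push_cast; exact dvd_pow_self _ hu0
    have h3 : (p : ℤ) ∣ 1 := by
      have := dvd_add (h2.mul_left (v χ₂)) (h1.mul_left (v χp))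
      rw [show v χ₂ * (f χ₂ : ℤ) + v χp * (f χp : ℤ) = -1 by omega, dvd_neg] at this
      exact this
    exact hp.ne_one (by exact_mod_cast Int.eq_one_of_dvd_one (by positivity) h3)
  rw [pow_zero, one_mul] at hfw
  obtain ⟨P⟩ := (inferInstance : Nonempty (Sylow p G))
  have hmp' : ¬ p ∣ 3 * 2 ^ b := fun h => by
    rcases hp.dvd_mul.1 h with h | h
    · exact hp3 ((Nat.prime_dvd_prime_iff_eq hp Nat.prime_three).1 h)
    · exact hp2 ((Nat.prime_dvd_prime_iff_eq hp Nat.prime_two).1 (hp.dvd_of_dvd_pow h))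
  have hPcard := SmallGroups.card_sylow_eq (a := a) (m := 3 * 2 ^ b) (by rw [hG]; ring) hmp' P
  have hPab : ∀ x ∈ P, ∀ y ∈ P, x * y = y * x := by
    intro x hx y hy
    refine congrArg Subtype.val (?_ : (⟨x, hx⟩ : (P : Subgroup G)) * ⟨y, hy⟩ = ⟨y, hy⟩ * ⟨x, hx⟩)
    rcases (show a = 1 ∨ a = 2 by omega) with h | h
    · rw [h, pow_one] at hPcard
      haveI := isCyclic_of_prime_card hPcard
      exact (IsCyclic.commGroup (α := (P : Subgroup G))).mul_comm _ _
    · rw [h] at hPcard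
      exact (IsPGroup.isMulCommutative_of_card_eq_prime_sq hPcard).is_comm.comm _ _
  obtain rfl : u = a := Nat.pow_right_injective hp.two_le (show p ^ u = p ^ a by
    rw [← hPcard]
    exact (eq_sylow_of_primePow hna P hPab
      (fun e => (hmem χp hmp).2 (Subtype.ext (e.trans (funext fun x => (trivIrr_apply x).symm))))
      hfu).symm)
  have hpm : 2 ^ i = p ^ u + 1 ∨ p ^ u = 2 ^ i + 1 := by
    rcases hε2 with e | e <;> rcases hεp with e' | e' <;> rw [e, e', hfw, hfu] at hxy' <;>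
      push_cast at hxy' <;>
      first
        | (left; zify; linarith)
        | (right; zify; linarith)
        | (exfalso; nlinarith [pow_pos hp.pos u, pow_pos (two_pos : (0 : ℤ) < 2) i,
            (by positivity : (0 : ℤ) ≤ (p : ℤ) ^ u), (by positivity : (0 : ℤ) ≤ (2 : ℤ) ^ i)])
  obtain rfl : u = 1 := by
    by_contra h
    obtain rfl : u = 2 := by omega
    obtain ⟨r, hr⟩ := hp.odd_of_ne_two hp2
    have h25 : 25 ≤ p ^ 2 := by nlinarith
    have hi4 : 4 ≤ i := by
      by_contra h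
      have : 2 ^ i ≤ 2 ^ 3 := Nat.pow_le_pow_right two_pos (by omega)
      omega
    obtain ⟨s, hs⟩ : (4 : ℕ) ∣ (2 : ℕ) ^ i := ⟨2 ^ (i - 2), by rw [show i = 2 + (i - 2) by omega, pow_add]; norm_num⟩
    have hsq : p ^ 2 = 4 * (r * r + r) + 1 := by rw [hr]; ring
    rcases hpm with e | e
    · omega
    · -- `(p - 1) (p + 1)` is a power of two
      have h1 : (2 * r) * (2 * r + 2) = 2 ^ i := by
        have : (2 * r) * (2 * r + 2) = 4 * (r * r + r) := by ring
        omega
      obtain ⟨a1, -, e1⟩ := (Nat.dvd_prime_pow Nat.prime_two).1 (h1 ▸ dvd_mul_right _ _ : 2 * r ∣ 2 ^ i)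
      obtain ⟨a2, -, e2⟩ := (Nat.dvd_prime_pow Nat.prime_two).1 (h1 ▸ dvd_mul_left _ _ : 2 * r + 2 ∣ 2 ^ i)
      have d : ∀ k, 4 ≤ 2 ^ k → 4 ∣ 2 ^ k := fun k hk => by
        have hk2 : 2 ≤ k := by
          by_contra h
          interval_cases k <;> norm_num at hk
        exact ⟨2 ^ (k - 2), by rw [show k = 2 + (k - 2) by omega, pow_add]; norm_num⟩
      have := d a1 (by omega)
      have := d a2 (by omega)
      omega
  simp only [pow_one] at hpm hG hfu hPcard
  have hi0 : i ≠ 0 := fun h => hf1 χ₂ hm2 (by rw [hfw, h, pow_zero])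
  -- a central involution of a Sylow 2-subgroup
  have hm2' : ¬ 2 ∣ 3 * p := fun h => by
    rcases Nat.prime_two.dvd_mul.1 h with h | h
    · norm_num at h
    · exact hp2 ((Nat.prime_dvd_prime_iff_eq Nat.prime_two hp).1 h).symm
  obtain ⟨D⟩ := (inferInstance : Nonempty (Sylow 2 G))
  have hDcard := SmallGroups.card_sylow_eq (a := b) (m := 3 * p) (by rw [hG]; ring) hm2' D
  haveI : Nontrivial (D : Subgroup G) := Finite.one_lt_card_iff_nontrivial.1
    (by rw [hDcard]; exact Nat.one_lt_pow (by omega) one_lt_two)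
  haveI := D.isPGroup'.center_nontrivial
  obtain ⟨z', hz'⟩ := exists_prime_orderOf_dvd_card' (G := Subgroup.center (D : Subgroup G)) 2 (by
    obtain ⟨k, hk⟩ := IsPGroup.iff_card.1 (D.isPGroup'.to_subgroup (Subgroup.center (D : Subgroup G)))
    rw [hk]
    refine dvd_pow_self 2 fun h0 => ?_
    have : 1 < Nat.card (Subgroup.center (D : Subgroup G)) := Finite.one_lt_card_iff_nontrivial.2 inferInstance
    rw [hk, h0, pow_zero] at this
    omega)
  set z : G := ((z' : (D : Subgroup G)) : G) with hzdef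
  have hz : orderOf z = 2 := by
    rw [hzdef, Subgroup.orderOf_coe, Subgroup.orderOf_coe, hz']
  set C := Subgroup.centralizer ({z} : Set G) with hCdef
  have hDC : (D : Subgroup G) ≤ C := fun y hy => Subgroup.mem_centralizer_singleton_iff.2
    (congrArg Subtype.val (Subgroup.mem_center_iff.1 z'.2 ⟨y, hy⟩))
  have hz1 : z ≠ 1 := fun h => by rw [h, orderOf_one] at hz; norm_num at hz
  -- its centraliser is that Sylow subgroup
  have hCcard : Nat.card C = 2 ^ b := by
    have hnot : ∀ r : ℕ, r.Prime → r ≠ 2 → (∀ T : Sylow r G,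
        Subgroup.centralizer (T : Set G) = (T : Subgroup G)) →
        (∀ T : Sylow r G, Nat.card (T : Subgroup G) = r) → ¬ r ∣ Nat.card C := by
      intro r hr hr2 hcen hcard h
      haveI := Fact.mk hr
      obtain ⟨⟨y, hy⟩, hyo⟩ := exists_prime_orderOf_dvd_card' (G := C) r h
      rw [← Subgroup.orderOf_coe] at hyo
      change orderOf y = r at hyo
      have hpg : IsPGroup r ↥(Subgroup.zpowers y) :=
        IsPGroup.of_card (n := 1) (by rw [Nat.card_zpowers, hyo, pow_one])
      obtain ⟨T, hT⟩ := hpg.exists_le_sylow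
      have hTy : (T : Subgroup G) = Subgroup.zpowers y :=
        (Subgroup.eq_of_le_of_card_ge hT (by rw [hcard T, Nat.card_zpowers, hyo])).symm
      have hzT : z ∈ Subgroup.centralizer (T : Set G) := by
        show z ∈ Subgroup.centralizer ((T : Subgroup G) : Set G)
        rw [hTy, ← SmallGroups.centralizer_singleton_eq_zpowers_centralizer,
          Subgroup.mem_centralizer_singleton_iff]
        exact (Subgroup.mem_centralizer_singleton_iff.1 hy).symm
      rw [hcen T] at hzT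
      have h2 : orderOf z ∣ r := by
        rw [← hcard T, ← Subgroup.orderOf_mk z hzT]
        exact orderOf_dvd_natCard _
      rw [hz] at h2
      exact hr2 ((Nat.prime_dvd_prime_iff_eq Nat.prime_two hr).1 h2).symm
    have h3 : ¬ 3 ∣ Nat.card C := hnot 3 Nat.prime_three (by norm_num)
      (fun T => Blocks.centralizer_sylow_of_card (p := p) (a := 1) (b := b) Nat.prime_two hp3
        (by norm_num) (by rw [hG, pow_one]; ring) T)
      (fun T => by
        simpa using SmallGroups.card_sylow_eq (a := 1) (m := p ^ 1 * 2 ^ b) (by rw [hG]; ring) hm3 T)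
    have hpC : ¬ p ∣ Nat.card C := hnot p hp hp2
      (fun T => Blocks.centralizer_sylow_of_card (p := 3) (a := 1) (b := b) Nat.prime_two
        (Ne.symm hp3) (Ne.symm hp2) (by rw [hG, pow_one]; ring) T)
      (fun T => by
        simpa using SmallGroups.card_sylow_eq (a := 1) (m := 3 * 2 ^ b) (by rw [hG]; ring) hmp' T)
    refine Nat.dvd_antisymm ?_ (hDcard ▸ Subgroup.card_dvd_of_le hDC)
    have h : Nat.card C ∣ 3 * p * 2 ^ b := hG ▸ Subgroup.card_subgroup_dvd_card C
    exact ((Nat.prime_three.coprime_iff_not_dvd.2 h3).symm.mul_right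
      (hp.coprime_iff_not_dvd.2 hpC).symm).dvd_of_dvd_mul_left h
  have hidx : C.index = 3 * p := by
    refine Nat.eq_of_mul_eq_mul_left (pow_pos two_pos b) ?_
    rw [← hCcard, Subgroup.card_mul_index, hG, hCcard]; ring
  -- the class product
  have hzz : z * z = 1 := by rw [← pow_two, ← hz]; exact pow_orderOf_eq_one z
  have hint : ∀ χ : IrrCharacter G, ∃ r : ℤ, (χ : G → ℂ) z = r := fun χ => by
    obtain ⟨n, r, -, hr, -⟩ := Involutions.exists_int_of_involution χ.2 hzz
    exact ⟨r, hr⟩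
  choose A hA using hint
  set X := Finset.univ.filter fun x => IsConj z x ∧ IsConj z (x * t) with hX
  have hXle : X.card ≤ 3 := by
    rcases X.eq_empty_or_nonempty with h | ⟨x₀, hx₀⟩
    · simp [h]
    have hsq : ∀ y, IsConj z y → y * y = 1 := fun y hy => by
      obtain ⟨g, rfl⟩ := isConj_iff.1 hy
      rw [show g * z * g⁻¹ * (g * z * g⁻¹) = g * (z * z) * g⁻¹ by group, hzz]; group
    have hcomm : ∀ x ∈ X, x * t * x = t⁻¹ := fun x hx => by
      obtain ⟨h1, h2⟩ := (Finset.mem_filter.1 hx).2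
      exact eq_inv_of_mul_eq_one_left (by rw [mul_assoc]; exact hsq _ h2)
    have hinS : ∀ x ∈ X, x₀ * x ∈ (S : Subgroup G) := fun x hx => by
      rw [← hCt, Subgroup.mem_centralizer_singleton_iff]
      have h0 := hcomm x₀ hx₀
      have h1 := hcomm x hx
      have s0 := hsq x₀ (Finset.mem_filter.1 hx₀).2.1
      have s1 := hsq x (Finset.mem_filter.1 hx).2.1
      calc x₀ * x * t = x₀ * (x * t * x) * x := by
            rw [show x₀ * (x * t * x) * x = x₀ * x * t * (x * x) by group, s1, mul_one]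
        _ = x₀ * t⁻¹ * x := by rw [h1]
        _ = x₀ * (x₀ * t * x₀) * x := by rw [h0]
        _ = t * (x₀ * x) := by
            rw [show x₀ * (x₀ * t * x₀) * x = x₀ * x₀ * t * (x₀ * x) by group, s0, one_mul]
    calc X.card = Nat.card ↥X := (Nat.card_eq_finsetCard X).symm
      _ ≤ Nat.card (S : Subgroup G) := Nat.card_le_card_of_injective
          (fun x => ⟨x₀ * x.1, hinS x.1 x.2⟩) fun x y h =>
            Subtype.ext (mul_left_cancel (congrArg Subtype.val h))
      _ = 3 := hS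
  have hcount := BrauerCharacters.sum_weight_pairs (G := G) z z (fun u => if u = t then (1 : ℂ) else 0)
  simp only [ite_mul, one_mul, zero_mul, Finset.sum_ite_eq', Finset.mem_univ, if_true] at hcount
  simp only [centralChar, ← hCdef, hidx, hA, hv, map_intCast] at hcount
  rw [hthree' (fun χ => ((3 * p : ℕ) : ℂ) * (A χ : ℂ) / (χ : G → ℂ) 1 * (A χ : ℂ))] at hcount
  have hAt : A (trivIrr G) = 1 := by
    have h := hA (trivIrr G)
    rw [trivIrr_apply] at h
    exact_mod_cast h.symm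
  replace hcount : (X.card : ℂ) = _ := Eq.trans (by rw [hX]; congr!) hcount
  simp only [hAt, trivIrr_apply, (BrauerCharacters.charDegree_spec χ₂).1,
    (BrauerCharacters.charDegree_spec χp).1, Int.cast_one, div_one, mul_one] at hcount
  have horz : (1 : ℤ) + (v χ₂ * A χ₂ + v χp * A χp) = 0 := by
    have h := horth' z fun h => by
      obtain ⟨g, hg⟩ := isConj_iff.1 h
      have : orderOf t = 2 := by rw [← hg, Involutions.orderOf_conj, hz]
      omega
    rw [hA, hA] at h
    exact_mod_cast h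
  have hsq : (X.card : ℤ) * 2 ^ b * f χ₂ =
      3 * (v χ₂ * f χ₂ - v χ₂ * A χ₂) ^ 2 := by
    have n2 : (f χ₂ : ℂ) ≠ 0 := Nat.cast_ne_zero.2 (BrauerCharacters.charDegree_spec χ₂).2.1.ne'
    have np : (p : ℂ) ≠ 0 := Nat.cast_ne_zero.2 hp.ne_zero
    rw [hG] at hcount
    change charDegree (χp : G → ℂ) = p at hfu
    rw [hfu] at hcount
    push_cast at hcount
    have hfu' : f χp = p := hfu
    simp only [hf] at hxy' hfu' n2 ⊢
    rw [hfu'] at hxy'
    field_simp at hcount
    have e2 : ((v χ₂ : ℂ)) ^ 2 = 1 := by rcases hε2 with e | e <;> simp [e]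
    have ep : ((v χp : ℂ)) ^ 2 = 1 := by rcases hεp with e | e <;> simp [e]
    have hx : (1 : ℂ) + ((v χ₂ : ℂ) * (charDegree (χ₂ : G → ℂ) : ℂ) + (v χp : ℂ) * p) = 0 := by
      exact_mod_cast hxy'
    have hz' : (1 : ℂ) + ((v χ₂ : ℂ) * (A χ₂ : ℂ) + (v χp : ℂ) * (A χp : ℂ)) = 0 := by
      exact_mod_cast horz
    rw [← @Int.cast_inj ℂ]
    push_cast
    have hpos := (BrauerCharacters.charDegree_spec χ₂).2.1
    rcases hε2 with e | e <;> rcases hεp with e' | e' <;>
      simp only [e, e', Int.cast_one, Int.cast_neg, one_mul, neg_mul, mul_neg, mul_one] at hcount hx hz' hxy' ⊢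
    · omega
    · linear_combination hcount - 3 * ((charDegree (χ₂ : G → ℂ) : ℂ) + (A χ₂ : ℂ) ^ 2) * hx +
        3 * (charDegree (χ₂ : G → ℂ) : ℂ) * ((A χp : ℂ) + 1 + (A χ₂ : ℂ)) * hz'
    · linear_combination hcount + 3 * ((charDegree (χ₂ : G → ℂ) : ℂ) - (A χ₂ : ℂ) ^ 2) * hx +
        3 * (charDegree (χ₂ : G → ℂ) : ℂ) * ((A χp : ℂ) + (A χ₂ : ℂ) - 1) * hz'
    · omega
  rw [hfw] at hsq
  push_cast at hsq
  have hne : v χ₂ * ((2 : ℤ) ^ i) - v χ₂ * A χ₂ ≠ 0 := by
    intro h
    have h' : A χ₂ = 2 ^ i := by rcases hε2 with e | e <;> rw [e] at h <;> linarith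
    refine CharDegreesTheory.PrimeDegrees.norm_ne hnc (hmem χ₂ hm2).2 hz1 ?_
    rw [hA, h', show charDegree (χ₂ : G → ℂ) = 2 ^ i from hfw]
    push_cast
    rw [norm_pow, Complex.norm_ofNat]
  have hbound : |A χ₂| ≤ 2 ^ i := by
    obtain ⟨n, ρ, -, hρ⟩ := id χ₂.2
    have h := Coherence.norm_apply_le_re (IsIrrCharacter.isCharacter χ₂.2) z
    rw [hA, (BrauerCharacters.charDegree_spec χ₂).1, show charDegree (χ₂ : G → ℂ) = 2 ^ i from hfw,
      Complex.norm_intCast, Complex.natCast_re] at h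
    exact_mod_cast h
  have hN : X.card = 3 := by
    have h3 : (3 : ℤ) ∣ (X.card : ℤ) := by
      have hd : (3 : ℤ) ∣ (X.card : ℤ) * 2 ^ b * 2 ^ i := ⟨_, hsq⟩
      have hpr : Prime (3 : ℤ) := Nat.prime_iff_prime_int.1 Nat.prime_three
      rcases hpr.dvd_mul.1 hd with h | h
      · rcases hpr.dvd_mul.1 h with h | h
        · exact h
        · exact absurd (hpr.dvd_of_dvd_pow h) (by norm_num)
      · exact absurd (hpr.dvd_of_dvd_pow h) (by norm_num)
    have h3' : 3 ∣ X.card := by exact_mod_cast h3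
    have h0 : X.card ≠ 0 := fun h => hne (by
      rw [h, Nat.cast_zero, zero_mul, zero_mul] at hsq
      have : (v χ₂ * 2 ^ i - v χ₂ * A χ₂) ^ 2 = 0 := by linarith
      exact (pow_eq_zero_iff two_ne_zero).1 this)
    omega
  rw [hN] at hsq
  have hsq' : ((2 : ℤ) ^ i - A χ₂) ^ 2 = 2 ^ (b + i) := by
    rw [pow_add]
    rcases hε2 with e | e <;> rw [e] at hsq <;> push_cast at hsq <;> linarith
  have hA2 := abs_le.1 hbound
  obtain ⟨n, -, hn⟩ := (Nat.dvd_prime_pow Nat.prime_two).1 (show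
      ((2 : ℤ) ^ i - A χ₂).natAbs ∣ 2 ^ (b + i) from ⟨((2 : ℤ) ^ i - A χ₂).natAbs, by
    rw [← pow_two, ← Int.natAbs_pow, hsq']; simp [Int.natAbs_pow]⟩)
  have hbi : b + i = 2 * n := Nat.pow_right_injective (le_refl 2) (by
    show 2 ^ (b + i) = 2 ^ (2 * n)
    rw [show 2 * n = n * 2 from mul_comm _ _, pow_mul, ← hn, ← Int.natAbs_pow, hsq']
    simp [Int.natAbs_pow])
  have hni : n ≤ i + 1 := (Nat.pow_le_pow_iff_right (by norm_num : 1 < 2)).1 (by
    rw [← hn]
    zify
    rw [abs_le, pow_succ]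
    constructor <;> linarith)
  have hb : b = i := by
    by_contra h
    obtain rfl : n = i + 1 := by omega
    -- equality forces the kernel
    have h4 : |(2 : ℤ) ^ i - A χ₂| = 2 ^ (i + 1) := by
      rw [← Int.natCast_natAbs, hn]; push_cast; ring
    have hneg : A χ₂ = -(2 : ℤ) ^ i := by
      rw [pow_succ] at h4
      rcases abs_choice ((2 : ℤ) ^ i - A χ₂) with e | e <;> rw [e] at h4 <;> linarith
    refine CharDegreesTheory.PrimeDegrees.norm_ne hnc (hmem χ₂ hm2).2 hz1 ?_
    rw [hA, hneg, show charDegree (χ₂ : G → ℂ) = 2 ^ i from hfw]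
    push_cast
    rw [norm_neg, norm_pow, Complex.norm_ofNat]
  subst hb
  -- counting the Sylow `p`-subgroups
  obtain ⟨cp, ep, hcp, -, hep, hepd, hmul⟩ :=
    SmallGroups.sylow_prime_data hnc (m := 3 * 2 ^ b) (by rw [hG]; ring) hmp' P
  have hCP : Subgroup.centralizer (P : Set G) = (P : Subgroup G) :=
    Blocks.centralizer_sylow_of_card (p := 3) (a := 1) (b := b) Nat.prime_two
      (Ne.symm hp3) (Ne.symm hp2) (by rw [hG, pow_one]; ring) P
  rw [show Subgroup.centralizer ((P : Subgroup G) : Set G) = (P : Subgroup G) from hCP, hPcard] at hcp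
  obtain rfl : cp = 1 := Nat.eq_of_mul_eq_mul_left hp.pos (by rw [mul_one]; exact hcp.symm)
  obtain ⟨k, hk⟩ : ∃ k, Nat.card (Sylow p G) = 1 + k * p := by
    refine ⟨Nat.card (Sylow p G) / p, ?_⟩
    have h := Nat.div_add_mod (Nat.card (Sylow p G)) p
    have hmod := card_sylow_modEq_one p G
    rw [Nat.ModEq, Nat.mod_eq_of_lt hp.one_lt] at hmod
    rw [hmod, mul_comm] at h
    omega
  have hk1 : 1 ≤ k := by
    rcases Nat.eq_zero_or_pos k with h | h
    · have := SmallGroups.one_lt_card_sylow hnc (p := p) (by rw [hG]; exact ⟨3 * 2 ^ b, by ring⟩)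
      rw [hk, h] at this
      omega
    · exact h
  rw [hk, one_mul] at hmul
  rcases numeric_end hp5 hpm hk1 hep hmul with ⟨rfl, h4⟩ | ⟨hn1, hi1, rfl⟩
  · left
    refine CfsgLib.SL2.Dickson.Sixty.nonempty_mulEquiv_alternating_five
      (by rw [hG, h4]) fun R hR hn => ?_
    rcases hn.eq_bot_or_eq_top with h | h
    · rw [h, Subgroup.card_bot] at hR; omega
    · rw [h, Subgroup.card_top, hG, h4] at hR; omega
  · right
    have hcard : Nat.card G = (p + 1) * p * 3 := by rw [hG, hi1]; ring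
    obtain ⟨e⟩ := SmallGroups.BrauerReynolds.psl_of_card_sylow hnc hp5 (hk.trans hn1) hcard
      (by norm_num) (by omega)
    have h := CfsgLib.ClassicalLinear.card_PSL_two_of_odd (F := ZMod p) (ZMod.card p)
      (hp.odd_of_ne_two hp2)
    rw [← Nat.card_congr e.toEquiv, hcard] at h
    obtain rfl : p = 7 := by
      obtain ⟨r, rfl⟩ : ∃ r, p = r + 1 := ⟨p - 1, by omega⟩
      rw [show (r + 1) ^ 2 - 1 = (r + 1 + 1) * r from Nat.sub_eq_of_eq_add (by ring)] at h
      have : 6 * ((r + 1) * (r + 1 + 1)) = r * ((r + 1) * (r + 1 + 1)) := by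
        linear_combination h
      have := Nat.eq_of_mul_eq_mul_right (by positivity) this
      omega
    exact ⟨e⟩

/-- Cofactor three. -/
theorem three_case (hna : ∃ x y : G, x * y ≠ y * x) {p q a b : ℕ} (hp : p.Prime) (hq : q.Prime)
    (hpq : p ≠ q) (ha : a ≤ 2) (hG : Nat.card G = 3 * p ^ a * q ^ b) :
    Nonempty (G ≃* alternatingGroup (Fin 5)) ∨
      Nonempty (G ≃* Matrix.ProjectiveSpecialLinearGroup (Fin 2) (ZMod 7)) := by
  haveI := Fact.mk hp
  have hp3 : p ≠ 3 := fun h => false_of_two_primes hna (a := 1 + a) Nat.prime_three hq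
    (dvd_of_eq (by rw [hG, h, pow_add]; norm_num) : Nat.card G ∣ 3 ^ (1 + a) * q ^ b)
  have hq3 : q ≠ 3 := fun h => false_of_two_primes hna (a := 1 + b) Nat.prime_three hp
    (dvd_of_eq (by rw [hG, h, pow_add]; ring) : Nat.card G ∣ 3 ^ (1 + b) * p ^ a)
  by_cases hq2 : q = 2
  · subst hq2
    exact three_two_case hna hpq hp3 ha hG
  by_cases hp2 : p = 2
  · subst hp2
    have hodd : Odd (3 * q ^ b) := (by decide : Odd 3).mul (hq.odd_of_ne_two hq2).pow
    rcases (show a = 0 ∨ a = 1 ∨ a = 2 by omega) with rfl | rfl | rfl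
    · exact (false_of_two_primes hna (p := 3) (a := 1) (b := b) Nat.prime_three hq
        (by rw [hG, pow_one]; norm_num)).elim
    · exact (false_two_mul_odd hna hodd (by rw [hG]; ring)).elim
    · exact Or.inl (four_case hna (p := 3) (a := 1) (q := q) (b := b) Nat.prime_three hq
        (Ne.symm hq3) (by norm_num) (by rw [hG]; ring))
  exfalso
  haveI : Fact (Nat.Prime 3) := ⟨Nat.prime_three⟩
  have hm : ¬ 3 ∣ p ^ a * q ^ b := fun h => by
    rcases Nat.prime_three.dvd_mul.1 h with h | h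
    · exact hp3 ((Nat.prime_dvd_prime_iff_eq Nat.prime_three hp).1 (Nat.prime_three.dvd_of_dvd_pow h)).symm
    · exact hq3 ((Nat.prime_dvd_prime_iff_eq Nat.prime_three hq).1 (Nat.prime_three.dvd_of_dvd_pow h)).symm
  obtain ⟨S⟩ := (inferInstance : Nonempty (Sylow 3 G))
  obtain ⟨c, e, -, -, he1, hed, hmul⟩ := SmallGroups.sylow_prime_data (not_isMulCommutative hna)
    (by rw [hG, mul_assoc]) hm S
  have h2 : 2 ∣ p ^ a * q ^ b := by
    obtain rfl : e = 2 := by
      have := Nat.le_of_dvd (by norm_num) hed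
      omega
    exact ⟨Nat.card (Sylow 3 G) * c, by rw [← hmul]; ring⟩
  rcases Nat.prime_two.dvd_mul.1 h2 with h | h
  · exact hp2 ((Nat.prime_dvd_prime_iff_eq Nat.prime_two hp).1 (Nat.prime_two.dvd_of_dvd_pow h)).symm
  · exact hq2 ((Nat.prime_dvd_prime_iff_eq Nat.prime_two hq).1 (Nat.prime_two.dvd_of_dvd_pow h)).symm

end CfsgLib.Fixity.SmallCofactor
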